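import Cfsg.Agent.H930.PQ.PsuPi
import Cfsg.Agent.H930.PQ.ModelU
import Cfsg.Agent.LieClassical.HermBasic

/-!
# Coordinates on the Sylow `p`-subgroups of `PSU₄(q)` (helper800, S5210)
-/

set_option autoImplicit false

namespace Cfsg.Agent.H800.U4

open Matrix Cfsg Cfsg.Agent.H835.Sd Cfsg.Agent.LieClassical.GUOrder Cfsg.Agent.H930.PQ

/-- Coordinates on (a group isomorphic to) a Sylow `p`-subgroup of `PSU₄(q)`, `|K| = q²`. -/
structure UCoord (X : Type*) [Group X] (K : Type*) [Field K] (q : ℕ) where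
  t : X → K
  s : X → K
  u : X → K
  z : X → K
  s_fix : ∀ x, s x ^ q = s x
  z_fix : ∀ x, z x ^ q = z x
  t_mul : ∀ x y, t (x * y) = t x + t y
  s_mul : ∀ x y, s (x * y) = s x + s y
  u_mul : ∀ x y, u (x * y) = u x + u y + t x * s y
  z_mul : ∀ x y, z (x * y) = z x + z y + (t x * u y ^ q + t x ^ q * u y) + t x * t x ^ q * s y
  inj : ∀ x y, t x = t y → s x = s y → u x = u y → z x = z y → x = y
  surj : ∀ a b c d : K, b ^ q = b → d ^ q = d → ∃ x, t x = a ∧ s x = b ∧ u x = c ∧ z x = d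

/-- Transport of coordinates along an isomorphism. -/
def UCoord.comap {X Y : Type*} [Group X] [Group Y] {K : Type*} [Field K] {q : ℕ} (C : UCoord X K q)
    (e : Y ≃* X) : UCoord Y K q where
  t y := C.t (e y)
  s y := C.s (e y)
  u y := C.u (e y)
  z y := C.z (e y)
  s_fix y := C.s_fix _
  z_fix y := C.z_fix _
  t_mul x y := by rw [map_mul, C.t_mul]
  s_mul x y := by rw [map_mul, C.s_mul]
  u_mul x y := by rw [map_mul, C.u_mul]
  z_mul x y := by rw [map_mul, C.z_mul]
  inj x y h1 h2 h3 h4 := e.injective (C.inj _ _ h1 h2 h3 h4)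
  surj a b c d hb hd := by
    obtain ⟨x, h1, h2, h3, h4⟩ := C.surj a b c d hb hd
    exact ⟨e.symm x, by rw [e.apply_symm_apply]; exact h1, by rw [e.apply_symm_apply]; exact h2,
      by rw [e.apply_symm_apply]; exact h3, by rw [e.apply_symm_apply]; exact h4⟩

section

variable {q : ℕ} {F : Type*} [Field F] [Fintype F]

/-- the unitriangular subgroup of `SUJ 4` -/
abbrev UG (hF : Fintype.card F = q ^ 2) : Subgroup ↥(SUJ 4 (frob hF)) := (Uni 4 F).subgroupOf (SUJ 4 (frob hF))

variable {hF : Fintype.card F = q ^ 2}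

/-- entries -/
abbrev en (x : ↥(UG hF)) (i j : Fin 4) : F := x.1.1.1 i j

theorem en_one (x : ↥(UG hF)) (i : Fin 4) : en x i i = 1 := by
  have h := x.2 i i le_rfl
  rwa [if_pos rfl] at h

theorem en_zero (x : ↥(UG hF)) {i j : Fin 4} (hij : j < i) : en x i j = 0 := by
  have h := x.2 i j hij.le
  rwa [if_neg hij.ne'] at h

theorem en_mul4 (x y : ↥(UG hF)) (i j : Fin 4) :
    en (x * y) i j = en x i 0 * en y 0 j + en x i 1 * en y 1 j + en x i 2 * en y 2 j + en x i 3 * en y 3 j := by
  change (x.1.1 * y.1.1).1 i j = _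
  rw [Units.val_mul, mul_apply, Fin.sum_univ_four]

theorem en_rel (x : ↥(UG hF)) (i j : Fin 4) :
    en x i 0 * (en x j.rev 3) ^ q + en x i 1 * (en x j.rev 2) ^ q + en x i 2 * (en x j.rev 1) ^ q +
      en x i 3 * (en x j.rev 0) ^ q = if i = j then 1 else 0 := by
  have h := (mem_SUJ.1 x.1.2).1
  rw [mem_GUJ] at h
  have h1 := congrFun (congrFun h i) j
  rw [mul_apply, Fin.sum_univ_four, one_apply] at h1
  exact h1

theorem rel23 (x : ↥(UG hF)) : en x 2 3 = - (en x 0 1) ^ q := by
  have h := en_rel x 2 3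
  have e : (3 : Fin 4).rev = 0 := rfl
  rw [e, en_zero x (i := 2) (j := 0) (by decide), en_zero x (i := 2) (j := 1) (by decide), en_one x 2, en_one x 0] at h
  rw [if_neg (by decide)] at h
  simp only [zero_mul, one_mul, zero_add, one_pow, mul_one] at h
  linear_combination h

theorem rel12 (hq : q ≠ 0) (x : ↥(UG hF)) : (en x 1 2) ^ q = - en x 1 2 := by
  have h := en_rel x 1 2
  have e : (2 : Fin 4).rev = 1 := rfl
  rw [e, en_zero x (i := 1) (j := 0) (by decide), en_one x 1, zero_pow hq] at h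
  rw [if_neg (by decide)] at h
  simp only [zero_mul, one_mul, zero_add, one_pow, mul_one, mul_zero, add_zero] at h
  linear_combination h

theorem rel13 (x : ↥(UG hF)) : en x 1 3 = - (en x 0 2) ^ q - en x 1 2 * (en x 0 1) ^ q := by
  have h := en_rel x 1 3
  have e : (3 : Fin 4).rev = 0 := rfl
  rw [e, en_zero x (i := 1) (j := 0) (by decide), en_one x 1, en_one x 0] at h
  rw [if_neg (by decide)] at h
  simp only [zero_mul, one_mul, zero_add, one_pow, mul_one] at h
  linear_combination h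

theorem rel03 (x : ↥(UG hF)) :
    (en x 0 3) ^ q = - en x 0 3 - en x 0 1 * (en x 0 2) ^ q - en x 0 2 * (en x 0 1) ^ q := by
  have h := en_rel x 0 3
  have e : (3 : Fin 4).rev = 0 := rfl
  rw [e, en_one x 0] at h
  rw [if_neg (by decide)] at h
  simp only [one_mul, one_pow, mul_one] at h
  linear_combination h

theorem mul01 (x y : ↥(UG hF)) : en (x * y) 0 1 = en x 0 1 + en y 0 1 := by
  rw [en_mul4, en_one x 0, en_one y 1, en_zero y (i := 2) (j := 1) (by decide),
    en_zero y (i := 3) (j := 1) (by decide)]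
  ring

theorem mul12 (x y : ↥(UG hF)) : en (x * y) 1 2 = en x 1 2 + en y 1 2 := by
  rw [en_mul4, en_zero x (i := 1) (j := 0) (by decide), en_one x 1, en_one y 2,
    en_zero y (i := 3) (j := 2) (by decide)]
  ring

theorem mul02 (x y : ↥(UG hF)) : en (x * y) 0 2 = en x 0 2 + en y 0 2 + en x 0 1 * en y 1 2 := by
  rw [en_mul4, en_one x 0, en_one y 2, en_zero y (i := 3) (j := 2) (by decide)]
  ring

theorem mul03 (x y : ↥(UG hF)) : en (x * y) 0 3 = en x 0 3 + en y 0 3 - en x 0 1 * (en y 0 2) ^ q -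
    en x 0 1 * en y 1 2 * (en y 0 1) ^ q - en x 0 2 * (en y 0 1) ^ q := by
  rw [en_mul4, en_one x 0, en_one y 3, rel13 y, rel23 y]
  ring

theorem pow_add_q (hF : Fintype.card F = q ^ 2) (a b : F) : (a + b) ^ q = a ^ q + b ^ q := by
  have h := map_add (frob hF) a b
  simpa only [frob_apply] using h

theorem pow_neg_q (hF : Fintype.card F = q ^ 2) (a : F) : (-a) ^ q = - a ^ q := by
  have h := map_neg (frob hF) a
  simpa only [frob_apply] using h

theorem pow_sub_q (hF : Fintype.card F = q ^ 2) (a b : F) : (a - b) ^ q = a ^ q - b ^ q := by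
  have h := map_sub (frob hF) a b
  simpa only [frob_apply] using h

theorem pow_pow_q (hF : Fintype.card F = q ^ 2) (a : F) : (a ^ q) ^ q = a := by
  have h := frob_frob hF a
  simpa only [frob_apply] using h

theorem en_ext {x y : ↥(UG hF)} (h1 : en x 0 1 = en y 0 1) (h2 : en x 1 2 = en y 1 2) (h3 : en x 0 2 = en y 0 2)
    (h4 : en x 0 3 = en y 0 3) : x = y := by
  apply Subtype.ext
  apply Subtype.ext
  apply Units.ext
  have h5 : en x 2 3 = en y 2 3 := by rw [rel23, rel23, h1]
  have h6 : en x 1 3 = en y 1 3 := by rw [rel13, rel13, h1, h2, h3]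
  ext i j
  change en x i j = en y i j
  rcases lt_trichotomy i j with h | h | h
  · fin_cases i <;> fin_cases j <;> first | exact h1 | exact h2 | exact h3 | exact h4 | exact h5 | exact h6 |
      exact absurd h (by decide)
  · subst h
    rw [en_one, en_one]
  · rw [en_zero x h, en_zero y h]

/-- the matrix with given coordinates -/
def mt (q : ℕ) (l a b c d : F) : Matrix (Fin 4) (Fin 4) F :=
  !![1, a, l * c, l * d - l * c * a ^ q; 0, 1, l * b, l * c ^ q - l * b * a ^ q; 0, 0, 1, -a ^ q; 0, 0, 0, 1]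

omit [Fintype F] in
theorem mt_det (l a b c d : F) : (mt q l a b c d).det = 1 := by
  rw [mt, Matrix.det_of_isUpperTriangular]
  · rw [Fin.prod_univ_four]
    simp
  · intro i j hij
    fin_cases i <;> fin_cases j <;> first | rfl | exact absurd hij (by decide)

theorem mt_sh (hF : Fintype.card F = q ^ 2) (hq : q ≠ 0) {l a b c d : F} (hl : l + l ^ q = 0) (hb : b ^ q = b)
    (hd : d ^ q = d) : mt q l a b c d * sh (frob hF) (mt q l a b c d) = 1 := by
  have hl' : l ^ q = - l := by linear_combination hl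
  have hz : (0 : F) ^ q = 0 := zero_pow hq
  ext i j
  rw [mul_apply, Fin.sum_univ_four]
  simp only [sh_apply, frob_apply]
  have e0 : (0 : Fin 4).rev = 3 := rfl
  have e1 : (1 : Fin 4).rev = 2 := rfl
  have e2 : (2 : Fin 4).rev = 1 := rfl
  have e3 : (3 : Fin 4).rev = 0 := rfl
  rw [e0, e1, e2, e3]
  fin_cases i <;> fin_cases j <;>
    simp [mt, Fin.rev, hz, mul_pow, pow_sub_q hF, pow_neg_q hF, pow_pow_q hF, hl', hb, hd] <;>
    try ring

/-- the element with given coordinates -/
theorem exists_en (hF : Fintype.card F = q ^ 2) (hq : q ≠ 0) {l : F} (hl : l + l ^ q = 0) (a b c d : F)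
    (hb : b ^ q = b) (hd : d ^ q = d) :
    ∃ x : ↥(UG hF), en x 0 1 = a ∧ en x 1 2 = l * b ∧ en x 0 2 = l * c ∧ en x 0 3 = l * d - l * c * a ^ q := by
  let g : GL (Fin 4) F := Matrix.GeneralLinearGroup.mkOfDetNeZero (mt q l a b c d) (by
    rw [mt_det]; exact one_ne_zero)
  have hg : g.1 = mt q l a b c d := rfl
  have h1 : g ∈ SUJ 4 (frob hF) := by
    rw [mem_SUJ, mem_GUJ, hg]
    exact ⟨mt_sh hF hq hl hb hd, mt_det l a b c d⟩
  have h2 : g ∈ Uni 4 F := by
    rw [mem_Uni, hg]
    intro i j hij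
    fin_cases i <;> fin_cases j <;> first | rfl | exact absurd hij (by decide)
  exact ⟨⟨⟨g, h1⟩, h2⟩, rfl, rfl, rfl, rfl⟩

/-- the coordinates of the unitriangular subgroup -/
noncomputable def uCoordUG (hF : Fintype.card F = q ^ 2) (hq : q ≠ 0) (l : F) (hl0 : l ≠ 0) (hl : l + l ^ q = 0) :
    UCoord ↥(UG hF) F q where
  t x := en x 0 1
  s x := en x 1 2 / l
  u x := en x 0 2 / l
  z x := (en x 0 3 + en x 0 2 * (en x 0 1) ^ q) / l
  s_fix x := by
    have hl' : l ^ q = - l := by linear_combination hl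
    rw [div_pow, rel12 hq, hl', neg_div_neg_eq]
  z_fix x := by
    have hl' : l ^ q = - l := by linear_combination hl
    rw [div_pow, pow_add_q hF, mul_pow, pow_pow_q hF, rel03, hl', ← neg_div_neg_eq]
    congr 1
    · ring
    · ring
  t_mul x y := mul01 x y
  s_mul x y := by rw [mul12, add_div]
  u_mul x y := by rw [mul02]; field_simp
  z_mul x y := by
    have hl' : l ^ q = - l := by linear_combination hl
    rw [mul03, mul02, mul01, pow_add_q hF, div_pow, hl']
    field_simp
    ring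
  inj x y h1 h2 h3 h4 := by
    have h2' := (div_left_inj' hl0).1 h2
    have h3' := (div_left_inj' hl0).1 h3
    have h4' := (div_left_inj' hl0).1 h4
    refine en_ext h1 h2' h3' ?_
    rw [h3', h1] at h4'
    exact add_right_cancel h4'
  surj a b c d hb hd := by
    obtain ⟨x, h1, h2, h3, h4⟩ := exists_en hF hq hl a b c d hb hd
    refine ⟨x, h1, ?_, ?_, ?_⟩
    · rw [h2]; field_simp
    · rw [h3]; field_simp
    · rw [h1, h3, h4]; field_simp; ring

end

/-- **Coordinates** on every Sylow `p`-subgroup of `PSU₄(q)`. -/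
theorem exists_uCoord {p : ℕ} [hp : Fact p.Prime] {F : Type*} [Field F] [Fintype F] [CharP F p] {n : ℕ} (hn : 1 ≤ n)
    (hF : Fintype.card F = (p ^ n) ^ 2) (T : Sylow p (PSU 4 F (p ^ n))) : Nonempty (UCoord ↥(T : Subgroup (PSU 4 F (p ^ n))) F (p ^ n)) := by
  classical
  have hq : p ^ n ≠ 0 := pow_ne_zero _ hp.out.ne_zero
  obtain ⟨P, hP⟩ := exists_P hF 4
  obtain ⟨l, hl0, hl⟩ := LieClassical.HermBasic.exists_trace_zero_ne hF
  have hsc := piU_scK hF (by decide : 3 ≤ 4) hP
  set π := piU hF hP with hπ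
  have hτ : ∀ x, frob hF (frob hF x) = x := frob_frob hF
  have htr : ∀ a, frob hF a = a → ∃ b, b + frob hF b = a := by
    intro a ha
    exact LieClassical.HermBasic.exists_trace_eq hF ha
  have hne : ∃ a : F, frob hF a ≠ a := LieClassical.HermBasic.exists_not_fixed hF
  have : Finite (PSU 4 F (p ^ n)) := inferInstance
  have h1 := US_isPGroup (π := π) p
  have h2 := US_index (π := π) p hτ htr hne hsc
  let T' : Sylow p (PSU 4 F (p ^ n)) := h1.toSylow h2
  obtain ⟨g, hg⟩ := MulAction.exists_smul_eq (PSU 4 F (p ^ n)) T T'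
  have e1 : ↥(T : Subgroup (PSU 4 F (p ^ n))) ≃* ↥(T' : Subgroup (PSU 4 F (p ^ n))) := by
    rw [← hg]
    exact Subgroup.equivSMul (MulAut.conj g) _
  have hinj : Function.Injective (π.comp (UG hF).subtype) := by
    rw [injective_iff_map_eq_one]
    intro x hx
    obtain ⟨c, hc⟩ := hsc.ker x.1 hx
    refine en_ext (y := 1) ?_ ?_ ?_ ?_
    · exact (hc 0 1).trans rfl
    · exact (hc 1 2).trans rfl
    · exact (hc 0 2).trans rfl
    · exact (hc 0 3).trans rfl
  have e2 : ↥(UG hF) ≃* ↥(US π) := MulEquiv.ofBijective (π.subgroupMap (UG hF))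
    ⟨fun x y hxy => hinj (congrArg Subtype.val hxy), π.subgroupMap_surjective (UG hF)⟩
  exact ⟨(uCoordUG hF hq l hl0 hl).comap (e1.trans e2.symm)⟩

end Cfsg.Agent.H800.U4
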