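import Cfsg.Agent.H800.U4.Syl
import Cfsg.Agent.H776.P4.Stmts

/-!
# `StSyl`: the Sylow `p`-subgroup of `PSU₄(q)` is `PG K` (helper800, S5210)
-/

set_option autoImplicit false

namespace Cfsg.Agent.H800.U4

open Cfsg Cfsg.Agent.H776.P4

universe u

/-- the coordinate isomorphism -/
noncomputable def UCoord.toPG {X : Type*} [Group X] {K : Type*} [Field K] [StarRing K] {q : ℕ} (C : UCoord X K q)
    (hst : ∀ x : K, star x = x ^ q) : X ≃* PG K :=
  MulEquiv.ofBijective
    (MonoidHom.mk' (fun x => (⟨C.t x, C.z x, C.u x, C.s x, by rw [hst, C.z_fix], by rw [hst, C.s_fix]⟩ : PG K))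
      (fun x y => by
        ext
        · exact C.t_mul x y
        · change C.z (x * y) = C.z x + C.z y + C.t x * star (C.u y) + star (C.t x) * C.u y +
            C.t x * star (C.t x) * C.s y
          rw [C.z_mul, hst, hst]
          ring
        · exact C.u_mul x y
        · exact C.s_mul x y))
    ⟨fun x y h => C.inj x y (congrArg PG.r h) (congrArg PG.c h) (congrArg PG.b h) (congrArg PG.a h), fun g => by
      obtain ⟨x, h1, h2, h3, h4⟩ := C.surj g.r g.c g.b g.a (by rw [← hst, g.hc]) (by rw [← hst, g.ha])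
      refine ⟨x, ?_⟩
      ext
      · exact h1
      · exact h4
      · exact h3
      · exact h2⟩

theorem stSyl : StSyl.{u} := by
  intro K _ _ p n _ h T
  have := h.fin
  have := h.char
  have := Fintype.ofFinite K
  obtain ⟨C⟩ := exists_uCoord (p := p) h.hn (by rw [← Nat.card_eq_fintype_card]; exact h.card) T
  exact ⟨C.toPG h.star_eq⟩

end Cfsg.Agent.H800.U4
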